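import Mathlib
import Cfsg.Agent.Lib.Helper51.Zass.Defs
import Cfsg.Agent.S0016
import Cfsg.Agent.Lib.Helper1.QuatSylow

/-!
# Project ZASS (S0690): package [FIN-A]

A nontrivial perfect group with a fixed-point-free linear action has an element of order 3.
-/

set_option autoImplicit false

namespace Cfsg.Agent.Lib.Helper61.Zass

open Cfsg.Agent.Lib.Helper51.Zass

universe u

section Lin

variable {p : ℕ} [Fact p.Prime] {V : Type u} [AddCommGroup V] [Module (ZMod p) V]
  {G : Type u} [Group G] (ρ : G →* Module.End (ZMod p) V)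

/-- The norm element of a non-identity element of exponent `r` vanishes. -/
theorem geom_zero (hρ : ∀ g : G, g ≠ 1 → ∀ v : V, ρ g v = v → v = 0) (r : ℕ) (g : G) (hg : g ≠ 1)
    (hgr : g ^ r = 1) : ∑ j ∈ Finset.range r, ρ g ^ j = 0 := by
  have h1 : (ρ g - 1) * ∑ j ∈ Finset.range r, ρ g ^ j = 0 := by
    rw [mul_geom_sum, ← map_pow, hgr, map_one, sub_self]
  ext v
  rw [LinearMap.zero_apply]
  apply hρ g hg
  have h2 : (ρ g - 1) ((∑ j ∈ Finset.range r, ρ g ^ j) v) = 0 := by
    rw [← Module.End.mul_apply, h1, LinearMap.zero_apply]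
  rw [LinearMap.sub_apply, Module.End.one_apply] at h2
  exact sub_eq_zero.mp h2

theorem rank_one_aux (hρ : ∀ g : G, g ≠ 1 → ∀ v : V, ρ g v = v → v = 0) (r : ℕ) (hr : r.Prime)
    (a c : G) (hac : Commute a c) (ha : orderOf a = r) (hc : orderOf c = r)
    (hnot : a ∉ Subgroup.zpowers c) : ((r : ℕ) : Module.End (ZMod p) V) = 0 := by
  have har : a ^ r = 1 := by rw [← ha]; exact pow_orderOf_eq_one a
  have hcr : c ^ r = 1 := by rw [← hc]; exact pow_orderOf_eq_one c
  have hne : ∀ j : ℕ, c ^ j * a ≠ 1 := by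
    intro j h
    apply hnot
    have h' : a = (c ^ j)⁻¹ := eq_inv_of_mul_eq_one_right h
    rw [h']
    exact inv_mem (pow_mem (Subgroup.mem_zpowers c) j)
  have hpow : ∀ j : ℕ, (c ^ j * a) ^ r = 1 := by
    intro j
    rw [(hac.symm.pow_left j).mul_pow, ← pow_mul, mul_comm j r, pow_mul, hcr, one_pow, har, mul_one]
  have h0 : ∑ j ∈ Finset.range r, ∑ i ∈ Finset.range r, ρ (c ^ j * a) ^ i = 0 := by
    apply Finset.sum_eq_zero
    intro j _
    exact geom_zero ρ hρ r _ (hne j) (hpow j)
  rw [Finset.sum_comm] at h0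
  have h1 : ∀ i : ℕ, ∑ j ∈ Finset.range r, ρ (c ^ j * a) ^ i
      = (∑ j ∈ Finset.range r, ρ (c ^ i) ^ j) * ρ a ^ i := by
    intro i
    rw [Finset.sum_mul]
    apply Finset.sum_congr rfl
    intro j _
    rw [← map_pow, ← map_pow, ← map_pow, ← map_mul]
    congr 1
    rw [(hac.symm.pow_left j).mul_pow, ← pow_mul, ← pow_mul, mul_comm j i]
  have h2 : ∑ i ∈ Finset.range r, ∑ j ∈ Finset.range r, ρ (c ^ j * a) ^ i
      = ((r : ℕ) : Module.End (ZMod p) V) := by
    rw [Finset.sum_eq_single_of_mem 0 (Finset.mem_range.mpr hr.pos)]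
    · rw [h1 0]
      simp
    · intro i hi hi0
      rw [h1 i]
      have hci : c ^ i ≠ 1 := by
        apply pow_ne_one_of_lt_orderOf hi0
        rw [hc]; exact Finset.mem_range.mp hi
      have hcir : (c ^ i) ^ r = 1 := by rw [← pow_mul, mul_comm, pow_mul, hcr, one_pow]
      rw [geom_zero ρ hρ r _ hci hcir, zero_mul]
  rw [h2] at h0
  exact h0

/-- No element of order `p` acts fixed-point-freely in characteristic `p`. -/
theorem no_order_p (hρ : ∀ g : G, g ≠ 1 → ∀ v : V, ρ g v = v → v = 0) [Nontrivial V] (c : G)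
    (hc : orderOf c = p) : False := by
  have hp : p.Prime := Fact.out
  have hc1 : c ≠ 1 := by
    intro h
    rw [h, orderOf_one] at hc
    exact hp.one_lt.ne hc
  have hcp : c ^ p = 1 := by rw [← hc]; exact pow_orderOf_eq_one c
  have hchar : CharP (Module.End (ZMod p) V) p :=
    charP_of_injective_algebraMap (algebraMap (ZMod p) (Module.End (ZMod p) V)).injective p
  have h1 : (ρ c - 1) ^ p = 0 := by
    rw [sub_pow_char_of_commute p (Commute.one_right _), one_pow, ← map_pow, hcp, map_one, sub_self]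
  have hinj : Function.Injective (ρ c - 1 : Module.End (ZMod p) V) := by
    rw [← LinearMap.ker_eq_bot, LinearMap.ker_eq_bot']
    intro v hv
    apply hρ c hc1
    rw [LinearMap.sub_apply, Module.End.one_apply] at hv
    exact sub_eq_zero.mp hv
  obtain ⟨v, hv⟩ := exists_ne (0 : V)
  have hinj' : Function.Injective ((ρ c - 1 : Module.End (ZMod p) V) ^ p) := by
    rw [Module.End.coe_pow]
    exact hinj.iterate p
  have h2 : ((ρ c - 1) ^ p) v = ((ρ c - 1) ^ p) 0 := by rw [h1]; simp
  exact hv (hinj' h2)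

/-- Commuting elements of prime order `r` generate the same subgroup. -/
theorem rank_one (hρ : ∀ g : G, g ≠ 1 → ∀ v : V, ρ g v = v → v = 0) [Nontrivial V] (r : ℕ)
    (hr : r.Prime) (a c : G) (hac : Commute a c) (ha : orderOf a = r) (hc : orderOf c = r) :
    a ∈ Subgroup.zpowers c := by
  by_contra hnot
  have h0 := rank_one_aux ρ hρ r hr a c hac ha hc hnot
  obtain ⟨v, hv⟩ := exists_ne (0 : V)
  have h1 : ((r : ℕ) : ZMod p) • v = 0 := by
    rw [Nat.cast_smul_eq_nsmul, ← Module.End.natCast_apply (R := ZMod p), h0, LinearMap.zero_apply]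
  rcases smul_eq_zero.mp h1 with h | h
  · have hpr : p ∣ r := (ZMod.natCast_eq_zero_iff r p).mp h
    have hp : p.Prime := Fact.out
    have hpe : p = r := (Nat.prime_dvd_prime_iff_eq hp hr).mp hpr
    subst hpe
    exact no_order_p ρ hρ c hc
  · exact hv h

end Lin

/-- A Sylow subgroup of a group with a fixed-point-free linear action has at most one subgroup of
prime order. -/
theorem sylow_unique {G : Type u} [Group G] [Finite G] (hG : IsFpfLin G) (r : ℕ)
    [hr : Fact r.Prime] (R : Sylow r G) (H K : Subgroup (R : Subgroup G)) (hH : Nat.card H = r)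
    (hK : Nat.card K = r) : H = K := by
  obtain ⟨p, hp, V, _, _, _, _, ρ, hρ⟩ := hG
  have hRnt : Nontrivial (R : Subgroup G) := by
    have h1 : 1 < Nat.card (R : Subgroup G) := by
      calc 1 < r := hr.out.one_lt
        _ = Nat.card H := hH.symm
        _ ≤ Nat.card (R : Subgroup G) := Subgroup.card_le_card_group H
    exact Finite.one_lt_card_iff_nontrivial.mp h1
  have hPG : IsPGroup r (R : Subgroup G) := R.isPGroup'
  have hZnt : Nontrivial (Subgroup.center (R : Subgroup G)) := hPG.center_nontrivial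
  have hZdvd : r ∣ Nat.card (Subgroup.center (R : Subgroup G)) := by
    obtain ⟨k, hk⟩ := (hPG.to_subgroup (Subgroup.center _)).exists_card_eq
    rw [hk]
    rcases Nat.eq_zero_or_pos k with h0 | h0
    · exfalso
      rw [h0, pow_zero] at hk
      have := Finite.one_lt_card_iff_nontrivial.mpr hZnt
      omega
    · exact dvd_pow_self r h0.ne'
  obtain ⟨z, hz⟩ := exists_prime_orderOf_dvd_card' r hZdvd
  obtain ⟨c, hcdef⟩ : ∃ c : (R : Subgroup G), c = (z : (R : Subgroup G)) := ⟨_, rfl⟩
  have hc : orderOf c = r := by rw [hcdef, Subgroup.orderOf_coe]; exact hz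
  have hcG : orderOf ((c : (R : Subgroup G)) : G) = r := by rw [Subgroup.orderOf_coe]; exact hc
  have hcent : ∀ x : (R : Subgroup G), x * c = c * x := by
    intro x
    rw [hcdef]
    exact Subgroup.mem_center_iff.mp z.2 x
  have key : ∀ H : Subgroup (R : Subgroup G), Nat.card H = r → H = Subgroup.zpowers c := by
    intro H hH
    obtain ⟨h, hh⟩ := exists_prime_orderOf_dvd_card' r (by rw [hH] : r ∣ Nat.card H)
    have hhR : orderOf (h : (R : Subgroup G)) = r := by rw [Subgroup.orderOf_coe]; exact hh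
    have hhG : orderOf (((h : (R : Subgroup G)) : G)) = r := by
      rw [Subgroup.orderOf_coe]; exact hhR
    have hcomm : Commute (((h : (R : Subgroup G)) : G)) ((c : (R : Subgroup G)) : G) := by
      have h1 := hcent (h : (R : Subgroup G))
      have h2 := congrArg (Subtype.val) h1
      exact h2
    have hmem := rank_one ρ hρ r hr.out _ _ hcomm hhG hcG
    have hmemR : (h : (R : Subgroup G)) ∈ Subgroup.zpowers c := by
      obtain ⟨k, hk⟩ := Subgroup.mem_zpowers_iff.mp hmem
      refine Subgroup.mem_zpowers_iff.mpr ⟨k, ?_⟩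
      apply Subtype.ext
      rw [Subgroup.coe_zpow]
      exact hk
    have e1 : Subgroup.zpowers (h : (R : Subgroup G)) = Subgroup.zpowers c := by
      apply Subgroup.eq_of_le_of_card_ge (Subgroup.zpowers_le.mpr hmemR)
      rw [Nat.card_zpowers, Nat.card_zpowers, hc, hhR]
    have e2 : Subgroup.zpowers (h : (R : Subgroup G)) = H := by
      apply Subgroup.eq_of_le_of_card_ge (Subgroup.zpowers_le.mpr h.2)
      rw [Nat.card_zpowers, hhR, hH]
    rw [← e2, e1]
  rw [key H hH, key K hK]

/-- A perfect finite group has no normal complement to a nontrivial Sylow subgroup. -/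
theorem perfect_no_complement {G : Type u} [Group G] [Finite G] (hperf : commutator G = ⊤)
    (r : ℕ) [hr : Fact r.Prime] (hdvd : r ∣ Nat.card G) (P : Sylow r G) (N : Subgroup G)
    (hN : N.Normal) (hc : N.IsComplement' (P : Subgroup G)) : False := by
  have hcard : N.index = Nat.card (P : Subgroup G) := hc.symm.index_eq_card
  have hPG : IsPGroup r (G ⧸ N) := by
    obtain ⟨k, hk⟩ := P.isPGroup'.exists_card_eq
    apply IsPGroup.of_card (n := k)
    rw [← Subgroup.index_eq_card, hcard, hk]
  have hnil : Group.IsNilpotent (G ⧸ N) := hPG.isNilpotent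
  have hperfQ : commutator (G ⧸ N) = ⊤ := by
    rw [commutator_def, ← Subgroup.map_top_of_surjective (QuotientGroup.mk' N)
      (QuotientGroup.mk'_surjective N), ← Subgroup.map_commutator, ← commutator_def, hperf]
  have hsub : Subsingleton (G ⧸ N) := by
    by_contra hns
    rw [not_subsingleton_iff_nontrivial] at hns
    have hlt := Group.IsSolvable.commutator_lt_top_of_nontrivial (G ⧸ N)
    rw [hperfQ] at hlt
    exact lt_irrefl _ hlt
  have hidx : N.index = 1 := by
    rw [Subgroup.index_eq_card]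
    exact Nat.card_eq_one_iff_unique.mpr ⟨hsub, ⟨1⟩⟩
  rw [hcard] at hidx
  exact P.ne_bot_of_dvd_card hdvd (Subgroup.card_eq_one.mp hidx)

theorem pkgFinA' : PkgFinA.{u} := by
  intro G _ _ hG hperf hnt
  by_contra hno
  push Not at hno
  have hcard1 : Nat.card G ≠ 1 := by
    intro h
    have := Finite.one_lt_card_iff_nontrivial.mpr hnt
    omega
  obtain ⟨r, hrdef⟩ : ∃ r, (Nat.card G).minFac = r := ⟨_, rfl⟩
  have hrp : r.Prime := by rw [← hrdef]; exact Nat.minFac_prime hcard1
  have hrF : Fact r.Prime := ⟨hrp⟩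
  have hrdvd : r ∣ Nat.card G := by rw [← hrdef]; exact Nat.minFac_dvd _
  obtain ⟨R⟩ : Nonempty (Sylow r G) := inferInstance
  have huniq := sylow_unique hG r R
  rcases Cfsg.Agent.S0016.result r R.isPGroup' (fun H K hH hK => huniq H K hH hK) with
    hcyc | ⟨h2, n, hn⟩
  · have hcomp := IsCyclic.isComplement' hrdef hcyc
    exact perfect_no_complement hperf r hrdvd R _ (MonoidHom.normal_ker _) hcomp
  · subst h2
    rcases Cfsg.Agent.Lib.Helper1.quaternion_sylow_dichotomy R n hn with
      ⟨P, N, hN, hc⟩ | ⟨H, K, hKn, ⟨e⟩⟩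
    · exact perfect_no_complement hperf 2 hrdvd P N hN hc
    · have h3 : 3 ∣ Nat.card G := by
        have d1 : 3 ∣ Nat.card (Matrix.SpecialLinearGroup (Fin 2) (ZMod 3)) := by
          rw [Cfsg.Agent.Lib.Helper1.card_sl23]; norm_num
        rw [← Nat.card_congr e.toEquiv] at d1
        exact d1.trans ((Subgroup.card_quotient_dvd_card _).trans
          (Subgroup.card_subgroup_dvd_card H))
      have h3F : Fact (Nat.Prime 3) := ⟨Nat.prime_three⟩
      obtain ⟨g, hg⟩ := exists_prime_orderOf_dvd_card' 3 h3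
      exact hno g hg

/-- [FIN-A], with the signature of the plan (the hypothesis `hUI` is not needed). -/
theorem pkgFinA (_hUI : PkgUI.{u}) : PkgFinA.{u} := pkgFinA'

end Cfsg.Agent.Lib.Helper61.Zass
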